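import Cfsg.Agent.H6.Fi23.Tab0

set_option autoImplicit false
set_option maxRecDepth 100000
set_option Elab.async false

namespace Cfsg.H6.Fi23

theorem p0 : allR (ptU img) 0 576 = true := by decide +kernel

theorem p1 : allR (ptU img) 576 576 = true := by decide +kernel

theorem p2 : allR (ptU img) 1152 576 = true := by decide +kernel

theorem p3 : allR (ptU img) 1728 576 = true := by decide +kernel

theorem p4 : allR (ptU img) 2304 576 = true := by decide +kernel

theorem p5 : allR (ptU img) 2880 576 = true := by decide +kernel

theorem p6 : allR (ptU img) 3456 576 = true := by decide +kernel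

theorem p7 : allR (ptU img) 4032 576 = true := by decide +kernel

theorem p8 : allR (ptU img) 4608 576 = true := by decide +kernel

theorem p9 : allR (ptU img) 5184 576 = true := by decide +kernel

end Cfsg.H6.Fi23
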