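import Cfsg.Agent.H6.Fi23.Tab0

set_option autoImplicit false
set_option maxRecDepth 100000
set_option Elab.async false

namespace Cfsg.H6.Fi23

theorem p10 : allR (ptU img) 5760 576 = true := by decide +kernel

theorem p11 : allR (ptU img) 6336 576 = true := by decide +kernel

theorem p12 : allR (ptU img) 6912 576 = true := by decide +kernel

theorem p13 : allR (ptU img) 7488 576 = true := by decide +kernel

theorem p14 : allR (ptU img) 8064 576 = true := by decide +kernel

theorem p15 : allR (ptU img) 8640 576 = true := by decide +kernel

theorem p16 : allR (ptU img) 9216 576 = true := by decide +kernel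

theorem p17 : allR (ptU img) 9792 576 = true := by decide +kernel

theorem p18 : allR (ptU img) 10368 576 = true := by decide +kernel

theorem p19 : allR (ptU img) 10944 576 = true := by decide +kernel

end Cfsg.H6.Fi23
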