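import Cfsg.Agent.H6.Fi23.Tab0

set_option autoImplicit false
set_option maxRecDepth 100000
set_option Elab.async false

namespace Cfsg.H6.Fi23

theorem p30 : allR (ptU img) 17280 576 = true := by decide +kernel

theorem p31 : allR (ptU img) 17856 576 = true := by decide +kernel

theorem p32 : allR (ptU img) 18432 576 = true := by decide +kernel

theorem p33 : allR (ptU img) 19008 576 = true := by decide +kernel

theorem p34 : allR (ptU img) 19584 576 = true := by decide +kernel

theorem p35 : allR (ptU img) 20160 576 = true := by decide +kernel

theorem p36 : allR (ptU img) 20736 576 = true := by decide +kernel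

theorem p37 : allR (ptU img) 21312 576 = true := by decide +kernel

theorem p38 : allR (ptU img) 21888 576 = true := by decide +kernel

theorem p39 : allR (ptU img) 22464 576 = true := by decide +kernel

end Cfsg.H6.Fi23
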