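import Cfsg.Agent.H6.Fi23.Tab0

set_option autoImplicit false
set_option maxRecDepth 100000
set_option Elab.async false

namespace Cfsg.H6.Fi23

theorem p50 : allR (ptU img) 28800 576 = true := by decide +kernel

theorem p51 : allR (ptU img) 29376 576 = true := by decide +kernel

theorem p52 : allR (ptU img) 29952 576 = true := by decide +kernel

theorem p53 : allR (ptU img) 30528 576 = true := by decide +kernel

theorem p54 : allR (ptU img) 31104 567 = true := by decide +kernel

theorem q0_0 : allR (ivl img Ws 1 3511) 1 3510 = true := by decide +kernel

theorem q1_0 : allR (ivl img Ws 3511 31671) 3511 8333 = true := by decide +kernel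

theorem q1_1 : allR (ivl img Ws 3511 31671) 11844 8333 = true := by decide +kernel

theorem q1_2 : allR (ivl img Ws 3511 31671) 20177 8333 = true := by decide +kernel

theorem q1_3 : allR (ivl img Ws 3511 31671) 28510 3161 = true := by decide +kernel

end Cfsg.H6.Fi23
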