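import Cfsg.Agent.H6.Fi22.Main
import Cfsg.Agent.H6.Fi23.Main

set_option autoImplicit false
set_option maxRecDepth 100000

namespace Cfsg.H6.Fi23

theorem hs9 : ∀ l, evS ev s9 l ∈ gen ev Ws :=
  evS_mem (mem_of_letChk (by decide +kernel))

/-- The letters `a, ..., i` in the subgroup they generate. -/
def evH : ℕ → gen ev Ws := evSub (evS ev s9) (gen ev Ws) hs9

theorem hevH : Good evH 42649378395939397566720 := hev9.evSub hs9

theorem hRH : Rels evH Y332.R := hR9.evSub hs9

theorem hXH : gen evH Y332.C1.X = ⊤ := gen_evSub hs9 gen9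

def z : List ℕ := [2,3,4,5,6,7,8,2,3,4,5,6,7,8,2,3,4,5,6,7,8,2,3,4,5,6,7,8,2,3,4,5,6,7,8,2,3,4,5,6,7,8,2,3,4,5,6,7,8,2,3,4,5,6,7,8,2,3,4,5,6,7,8]

theorem relsH {T : List (List ℕ)} (h : (T.map (subst s9)).all (fixB img 11 bs) = true) :
    Rels evH T := by
  apply Rels.evSub
  intro r hr
  rw [evL_subst]
  exact main.2.2.rels h _ (List.mem_map.mpr ⟨r, hr, rfl⟩)

theorem z_central : evL evH z ∈ Subgroup.center (gen ev Ws) :=
  mem_center_of_rels hevH hXH (relsH (by decide +kernel))

theorem z_sq : evL evH z * evL evH z = 1 := by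
  rw [← evL_append]
  exact relsH (T := [z ++ z]) (by decide +kernel) _ List.mem_cons_self

theorem z_ne : evL evH z ≠ 1 := by
  intro h
  have h1 := congrArg Subtype.val h
  rw [evH, coe_evL_evSub, evL_subst] at h1
  exact hφ.ne_one (p := 3511) (by decide +kernel) h1

theorem cardH : Nat.card (gen ev Ws) = 64561751654400 * 2 := by
  have := finite
  exact card_of_index prim.index (by norm_num) main.1

theorem cover22 : Cfsg.IsNonsplitDoubleCover (gen ev Ws) Spor.Fi22 := by
  have := normal_zpowers_of_central z_central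
  have := Fi22.finite
  have := finite
  have := Fi22.simple
  have hq : Rels (fun l => QuotientGroup.mk' (Subgroup.zpowers (evL evH z)) (evH l)) Fi22.R := by
    refine Rels.mono (R := z :: Y332.R) (Rels.cons ?_ (hRH.map _)) (by decide +kernel)
    rw [← map_evL]
    exact (QuotientGroup.eq_one_iff _).mpr (Subgroup.mem_zpowers _)
  obtain ⟨ψ, hψ⟩ := Fi22.lift (hevH.map _) hq
  have hs := surjective_of_gen ψ hψ (gen_map_top _ (QuotientGroup.mk'_surjective _) hXH)
  have hc : (Subgroup.zpowers (evL evH z)).index = 64561751654400 :=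
    index_of_cards (card_zpowers_two z_ne z_sq) cardH
  obtain ⟨e⟩ := equiv_of_surjective ψ hs (by rw [Fi22.main.1]; exact hc.ge)
  refine nonsplit_of z_central z_ne z_sq e.symm (center_eq_bot_of_simple _ ?_)
    (no_index_two hXH hRH (C := [[8,24,26,37], [0,8,24,26,37], [0,24,26,37], [0,15,24,26,37], [0,15,21,24,26,37], [0,15,21,24,37], [0,15,21,24,30,37], [0,15,26,37], [0,15,26,35,37]]) (by decide +kernel))
  rw [Fi22.main.1]
  norm_num

end Cfsg.H6.Fi23
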